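import Mathlib
import Cfsg.Agent.Lib.MonRec.WcA
import Cfsg.Agent.Lib.Mon.L2

/-! # Elements of order 23 of `Co0` -/

set_option autoImplicit false

namespace CfsgLib.MonRec

open Cfsg CfsgLib.Leech CfsgLib.MType CfsgLib.Mon CfsgLib.Co1Rec Subgroup
open scoped Pointwise

instance fact23 : Fact (Nat.Prime 23) := ⟨by norm_num⟩

theorem ncard_modEq {X : Type*} {S : Set X} (hS : S.Finite) {f : X → X} (h1 : ∀ x ∈ S, f x ∈ S)
    (h2 : ∀ x ∈ S, f^[23] x = x) : S.ncard ≡ {x | x ∈ S ∧ f x = x}.ncard [MOD 23] := by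
  classical
  have := hS.fintype
  let F : Function.End S := fun x => ⟨f x, h1 _ x.2⟩
  have h3 : ∀ n (x : S), ((F ^ n) x : X) = f^[n] x := fun n => by
    induction n with
    | zero => exact fun _ => rfl
    | succ n ih => exact fun x => by rw [pow_succ, Function.iterate_succ_apply, ← ih (F x)]; rfl
  have h4 := Equiv.Perm.card_fixedPoints_modEq (f := F) (p := 23) (n := 1)
    (funext fun x => Subtype.ext ((h3 _ x).trans (h2 x x.2)))
  rw [← Nat.card_eq_fintype_card, ← Nat.card_eq_fintype_card, Nat.card_coe_set_eq, Nat.card_coe_set_eq,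
    ← Set.ncard_image_of_injective _ Subtype.val_injective] at h4
  convert h4 using 2
  ext x
  exact ⟨fun k => ⟨⟨x, k.1⟩, Subtype.ext k.2, rfl⟩, by rintro ⟨y, a, rfl⟩; exact ⟨y.2, congrArg Subtype.val a⟩⟩

theorem ncard_mod_one {X : Type*} {S : Set X} (hS : S.Finite) {f : X → X} (h1 : ∀ x ∈ S, f x ∈ S)
    (h2 : ∀ x ∈ S, f^[23] x = x) {a : X} (ha : a ∈ S) (h3 : f a = a) (h4 : ∀ x ∈ S, f x = x → x = a) :
    S.ncard % 23 = 1 := by
  have := ncard_modEq hS h1 h2
  rwa [show {x | x ∈ S ∧ f x = x} = {a} from Set.eq_singleton_iff_unique_mem.2 ⟨⟨ha, h3⟩, fun x k => h4 x k.1 k.2⟩,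
    Set.ncard_singleton] at this

theorem iter_conj {G : Type*} [Group G] (g x : G) (n : ℕ) : (fun x => g * x * g⁻¹)^[n] x = g ^ n * x * (g ^ n)⁻¹ := by
  induction n with
  | zero => simp
  | succ n ih => rw [Function.iterate_succ_apply', ih, pow_succ']; group

theorem z23_ind {P : ZMod 23 → Prop} (h0 : P 0) (h : ∀ x, P x → P (x + 1)) (x : ZMod 23) : P x := by
  rw [← ZMod.natCast_zmod_val x]
  induction x.val with
  | zero => simpa using h0
  | succ n ih => simpa using h _ ih

/-- the cycle of length 23 -/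
def al : M24 := ⟨Mathieu.alpha, Mathieu.alpha_mem⟩

theorem al_some (x : ZMod 23) : al • (some x : GolayPt) = some (x + 1) := rfl

theorem al_fix : ∀ p : GolayPt, al • p = p ↔ p = none := by
  show ∀ p, Mathieu.alpha p = p ↔ _
  decide +kernel

theorem al_pow_some (n : ℕ) (x : ZMod 23) : al ^ n • (some x : GolayPt) = some (x + n) := by
  induction n with
  | zero => simp
  | succ n ih => rw [pow_succ', mul_smul, ih, al_some]; simp [add_assoc]

theorem al_pow_none (n : ℕ) : al ^ n • (none : GolayPt) = none :=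
  MulAction.mem_stabilizer_iff.1 (pow_mem (MulAction.mem_stabilizer_iff.2 ((al_fix _).2 rfl)) n)

theorem al_pow : al ^ 23 = 1 := Subtype.ext (Equiv.ext fun p => by
  cases p with
  | none => exact al_pow_none 23
  | some x => exact (al_pow_some 23 x).trans (by rw [ZMod.natCast_self, add_zero]; rfl))

/-- an element of order 23 -/
def g23 : Co0 := permAut al

theorem g23_pow : g23 ^ 23 = 1 := by
  rw [g23, ← permHom_apply, ← map_pow, al_pow, map_one]

theorem orderOf_g23 : orderOf g23 = 23 := orderOf_eq_prime g23_pow fun h => by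
  have : al = 1 := permHom_injective (h.trans (map_one _).symm)
  exact absurd ((al_fix (some 0)).1 (by rw [this, one_smul])) (by simp)

theorem exists_conj_g23 {g : Co0} (h : orderOf g = 23) : ∃ (c : Co0) (m : ℤ), c * g ^ m * c⁻¹ = g23 := by
  have h1 : IsPGroup 23 (zpowers g23) := IsPGroup.of_card (n := 1) (by rw [Nat.card_zpowers, orderOf_g23]; rfl)
  have h2 := (zpowers g).card_eq_card_quotient_mul_card_subgroup
  rw [card_Co0, Nat.card_zpowers, h] at h2
  obtain ⟨x, hx⟩ := h1.nonempty_fixed_point_of_prime_not_dvd_card (Co0 ⧸ zpowers g) (by omega)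
  obtain ⟨k, rfl⟩ := QuotientGroup.mk_surjective x
  obtain ⟨m, e⟩ := mem_zpowers_iff.1 (QuotientGroup.eq.1 (hx ⟨g23, mem_zpowers _⟩).symm)
  exact ⟨k, m, by rw [e]; simp [mul_assoc]⟩

theorem fix_of_pm {g : Co0} (h : g ^ 23 = 1) {u : leechLattice} (hu : g ∈ pm u) : g • u = u := by
  have h1 : g ^ 2 ∈ MulAction.stabilizer Co0 u := by
    rcases hu with k | k <;> simp [sq, mul_smul, k]
  have := pow_mem h1 12
  rwa [← pow_mul, show 2 * 12 = 23 + 1 from rfl, pow_succ, h, one_mul] at this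

theorem fix64 {u : leechLattice} (h : g23 • u = u) (hu : sqNorm u.1 = 64) : u = e8 none ∨ u = -e8 none := by
  have h1 : ∀ x, u.1 (some x) = u.1 (some 0) := z23_ind rfl fun x k => by
    rw [← k, ← al_some, ← permAut_smul_apply_smul al u (some x), ← g23, h]
  have h2 := hu
  rw [sqNorm, Fintype.sum_option] at h2
  simp only [h1, Finset.sum_const, Finset.card_univ, ZMod.card, nsmul_eq_mul, Nat.cast_ofNat] at h2
  have h3 : u.1 (some 0) = 0 ∧ u.1 none % 8 = 0 := by
    generalize u.1 none = a at h2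
    generalize u.1 (some 0) = b at h2
    have : -8 ≤ a ∧ a ≤ 8 := by constructor <;> nlinarith [sq_nonneg b]
    have : -1 ≤ b ∧ b ≤ 1 := by constructor <;> nlinarith [sq_nonneg a]
    obtain ⟨⟨_, _⟩, _, _⟩ : (-8 ≤ a ∧ a ≤ 8) ∧ -1 ≤ b ∧ b ≤ 1 := ⟨‹_›, ‹_›⟩
    interval_cases a <;> interval_cases b <;> omega
  obtain ⟨b, hb⟩ := eq_e8_of_eight_dvd hu fun i => by
    cases i with
    | none => exact h3.2
    | some x => rw [h1, h3.1]; rfl
  obtain rfl : b = none := (al_fix b).1 (e8_inj (by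
    rw [← permAut_smul_e8]
    rcases hb with rfl | rfl
    exacts [h, by simpa [g23] using h]))
  exact hb

theorem mono_of_conj {c : Co0} (h : c⁻¹ * g23 * c ∈ monoGrp) : c ∈ monoGrp := by
  obtain ⟨d, hd, σ, e⟩ := h
  have h1 : (c⁻¹ * g23 * c) ^ 23 = 1 := by
    rw [← inv_inv c, inv_inv c⁻¹, conj_pow, g23_pow]; simp
  have h2 : PP _ σ := e ▸ pp_mono d hd σ
  have h3 := h2.pow 23
  rw [h1] at h3
  obtain ⟨b, hb⟩ := Equiv.Perm.exists_fixed_point_of_prime (p := 23) (n := 1) (by rw [card_pt]; norm_num)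
    (σ := (σ : Equiv.Perm GolayPt)) (by exact congrArg Subtype.val (h3.unique pp_one))
  have h4 := h2 b
  rw [show σ • b = b from hb] at h4
  have h5 := fix_of_pm h1 h4
  rw [mul_smul, mul_smul, inv_smul_eq_iff] at h5
  exact mem_monoGrp_of_smul_e8 c (fix64 h5 (by rw [sqNorm_smul, sqNorm_e8]))

theorem f23 {a : Co0} (h : a * g23 = g23 * a) {k : ℕ} (h2 : a ^ 2 ^ k = 1) : a = 1 ∨ a = negAut := by
  obtain ⟨d, hd, σ, rfl⟩ := mono_of_conj (c := a) (by
    rw [mul_assoc, ← h, inv_mul_cancel_left]; exact ⟨∅, isCW_empty, al, by rw [sgnAut_empty, one_mul]; rfl⟩)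
  have h3 := (pp_mono d hd σ).pow (2 ^ k)
  rw [h2] at h3
  rw [g23, mul_assoc, ← permAut_mul, ← mul_assoc, permAut_mul_sgnAut, mul_assoc, ← permAut_mul] at h
  obtain ⟨h4, h5⟩ := mono_inj h
  have h6 : ∀ p : GolayPt, σ • al • p = al • σ • p := fun p => by rw [← mul_smul, h5, mul_smul]
  have h7 : σ • (none : GolayPt) = none := (al_fix _).1 (by rw [← h6, (al_fix _).2 rfl])
  obtain ⟨t, ht⟩ : ∃ t, σ • (some 0 : GolayPt) = some t := Option.ne_none_iff_exists'.1 fun e => by
    simpa using smul_left_cancel σ (e.trans h7.symm)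
  have h8 : σ = al ^ t.val := Subtype.ext (Equiv.ext fun p => by
    change σ • p = al ^ t.val • p
    cases p with
    | none => rw [h7, al_pow_none]
    | some x =>
      rw [al_pow_some]
      induction x using z23_ind with
      | h0 => simpa using ht
      | h x ih => rw [← al_some, h6, ih, al_some, add_right_comm])
  have h9 : σ = 1 := by
    have := pow_gcd_eq_one.2 ⟨h3.unique pp_one,
      show σ ^ 23 = 1 by rw [h8, ← pow_mul, mul_comm, pow_mul, al_pow, one_pow]⟩
    rwa [(Nat.Coprime.pow_left k (by norm_num) : Nat.Coprime _ 23), pow_one] at this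
  have h10 : ∀ x, some x ∈ d ↔ some 0 ∈ d := z23_ind Iff.rfl fun x k => by
    rw [← k, ← al_some]
    conv_lhs => rw [h4]
    exact Finset.smul_mem_smul_finset_iff _
  rw [h9, permAut_one, mul_one]
  by_cases k : some 0 ∈ d
  · obtain rfl := hd.eq_univ (lt_of_lt_of_le (b := (Finset.univ.erase (none : GolayPt)).card) (by decide)
      (Finset.card_le_card fun p hp => by
        cases p with
        | none => simp at hp
        | some x => exact (h10 x).2 k))
    exact Or.inr rfl
  · obtain rfl := hd.eq_empty (lt_of_le_of_lt (b := ({none} : Finset GolayPt).card) (Finset.card_le_card fun p hp => by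
        cases p with
        | none => simp
        | some x => exact absurd ((h10 x).1 hp) k) (by simp))
    exact Or.inl sgnAut_empty

theorem comm_g23 {a : Co0} (h : (a : Spor.Co1) * g23 = g23 * a) : a * g23 = g23 * a := by
  refine ((mk_eq_mk_co1 (g := a * g23) (g' := g23 * a)).1 h).resolve_right (fun e => negAut_ne_one ?_) |>.symm
  have h1 : a⁻¹ * g23 * a = g23 * negAut := by rw [mul_assoc, e]; group
  have : _ ^ 23 = _ ^ 23 := congrArg (· ^ 23) h1
  rwa [← inv_inv a, inv_inv a⁻¹, conj_pow, (show Commute g23 negAut from neg_comm _).mul_pow, g23_pow,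
    neg_pow_odd (by decide), mul_one, mul_inv_cancel, one_mul, eq_comm] at this

theorem f23' {a : Spor.Co1} (h : a * g23 = g23 * a) {k : ℕ} (h2 : a ^ 2 ^ k = 1) : a = 1 := by
  obtain ⟨a, rfl⟩ := QuotientGroup.mk_surjective a
  refine mk_eq_one_co1.2 (f23 (comm_g23 h) (k := k + 1) ?_)
  rw [pow_succ, pow_mul, sq]
  rcases (mk_eq_one_co1 (g := a ^ 2 ^ k)).1 h2 with e | e <;> rw [e]
  exacts [one_mul _, negAut_mul_self]

end CfsgLib.MonRec
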