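import Mathlib
import Cfsg.Agent.Lib.G23.Setup
import Cfsg.Agent.Lib.Core.Cores
import Cfsg.Agent.Lib.Core.Frattini
import Cfsg.Agent.Lib.MType.Leech2
import Cfsg.Agent.Lib.Mathieu.Simple

/-! # The subgroups `N` of shape `2^a.(S3 × M24)` and `L` of shape `2^b.(L3(2) × 3.S6)` -/

set_option autoImplicit false
set_option maxRecDepth 100000

namespace CfsgLib.MonRec

open Cfsg Subgroup Equiv
open scoped commutatorElement

variable {G : Type*} [Group G]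

theorem finite_of_relIndex {C N : Subgroup G} [Finite C] (h : C.relIndex N ≠ 0) : Finite N := by
  have : Finite (C.subgroupOf N) := Finite.of_injective (fun x => (⟨x.1, x.2⟩ : C)) fun a b e =>
    Subtype.ext (Subtype.ext (congrArg Subtype.val e :))
  refine Nat.finite_of_card_ne_zero ?_
  rw [← (C.subgroupOf N).card_mul_index]
  exact mul_ne_zero Nat.card_pos.ne' h

theorem le_of_prime_index [Finite G] {O H : Subgroup G} [O.Normal] (hp : H.index.Prime)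
    (h : ¬ H.index ∣ Nat.card O) : O ≤ H := by
  by_contra n
  have h1 := (Core.isCoatom_of_index_prime hp).2 (H ⊔ O) (left_lt_sup.2 n)
  have h2 := relIndex_sup_right H O
  rw [h1, relIndex_top_right] at h2
  have h3 := relIndex_mul_index (inf_le_left : H ⊓ O ≤ H)
  rw [← relIndex_mul_index (inf_le_right : H ⊓ O ≤ O), inf_relIndex_right, inf_relIndex_left, ← h2, mul_comm] at h3
  exact h (Nat.eq_of_mul_eq_mul_right (Nat.pos_of_ne_zero index_ne_zero_of_finite) h3 ▸ relIndex_dvd_card H O)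

theorem le_of_relIndex {C L S : Subgroup G} (hp : (C.relIndex L).Prime) (h : L ⊓ C ≤ S) {x : G} (hx : x ∈ L)
    (h1 : x ∈ S) (h2 : x ∉ C) : L ≤ S :=
  subgroupOf_eq_top.1 ((Core.isCoatom_of_index_prime hp).2 _
    (lt_of_le_of_ne (fun y hy => h ⟨y.2, hy⟩) fun e => h2 (e.ge (show (⟨x, hx⟩ : L) ∈ S.subgroupOf L from h1))))

/-- the structure of `N` -/
structure NI (C N K R : Subgroup G) (φ : N →* Perm (Fin 3)) (ψ : N →* M24) (σ : Perm (Fin 3)) : Prop where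
  KN : K ≤ N
  RN : R ≤ N
  memK : ∀ n : N, ↑n ∈ K ↔ φ n = 1
  memR : ∀ n : N, ↑n ∈ R ↔ ψ n = 1
  memC : ∀ n : N, ↑n ∈ C ↔ φ n = 1 ∨ φ n = σ
  surj : ∀ a b, ∃ n, φ n = a ∧ ψ n = b
  two : IsPGroup 2 ↥(K ⊓ R)
  s1 : σ ≠ 1
  s2 : σ * σ = 1

theorem exists_ni {C N : Subgroup G} [Finite N] (hN : Nonempty (N ⧸ pCore 2 N ≃* Perm (Fin 3) × M24))
    (h : C.relIndex N = 3) : ∃ K R φ ψ σ, NI C N K R φ ψ σ := by
  obtain ⟨e⟩ := hN
  let Φ := e.toMonoidHom.comp (QuotientGroup.mk' _)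
  have hs : Function.Surjective Φ := e.surjective.comp (QuotientGroup.mk'_surjective _)
  have hk : Φ.ker = pCore 2 N := by ext x; simp [Φ]
  have h2 := Core.isPGroup_pCore 2 N
  have h3 : Φ.ker ≤ C.subgroupOf N := hk ▸ le_of_prime_index (h.symm ▸ Nat.prime_three :) (by
    obtain ⟨k, e⟩ := h2.exists_card_eq
    rw [e, show (C.subgroupOf N).index = 3 from h]
    exact fun k => absurd (Nat.prime_three.dvd_of_dvd_pow k) (by norm_num))
  generalize hU : (C.subgroupOf N).map Φ = U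
  have h4 : U.index = 3 := hU ▸ (index_map_eq _ hs h3).trans h
  have h5 : ∀ n : N, ↑n ∈ C ↔ Φ n ∈ U := fun n => by
    rw [← hU, ← mem_comap, comap_map_eq_self h3]; rfl
  have h6 : ∀ b, (1, b) ∈ U := fun b => by
    have := Mathieu.simple_M24
    let f := (MulAction.toPermHom _ (_ ⧸ U)).comp (MonoidHom.inr (Perm (Fin 3)) M24)
    refine U.normalCore_le (U.normalCore_eq_ker ▸ (f.normal_ker.eq_bot_or_eq_top.resolve_left fun k => ?_).ge
      (mem_top b))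
    have := card_dvd_of_injective f (f.ker_eq_bot_iff.1 k)
    rw [Leech.card_M24, Nat.card_perm, show Nat.card (_ ⧸ U) = 3 from h4] at this
    exact absurd this (by decide)
  have h7 : U = (U.comap (MonoidHom.inl _ _)).prod ⊤ := by
    ext ⟨a, b⟩
    simpa [mem_prod] using (U.mul_mem_cancel_right (h6 b) (y := (a, 1)))
  have h8 := (U.comap (MonoidHom.inl _ _)).card_mul_index
  rw [h7, index_prod, index_top, mul_one] at h4
  rw [h4, Nat.card_perm, Nat.card_fin] at h8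
  obtain ⟨⟨σ, a⟩, b, c⟩ := (Nat.card_eq_two_iff' (1 : U.comap (MonoidHom.inl _ _))).1 (by
    have : Nat.factorial 3 = 6 := rfl
    omega)
  have h9 : ∀ τ, τ ∈ U.comap (MonoidHom.inl _ _) ↔ τ = 1 ∨ τ = σ := fun τ =>
    ⟨fun k => or_iff_not_imp_left.2 fun n => congrArg Subtype.val (c ⟨τ, k⟩ fun e => n (congrArg Subtype.val e)),
      by rintro (rfl | rfl); exacts [one_mem _, a]⟩
  have s1 : σ ≠ 1 := fun e => b (Subtype.ext e)
  have mk : ∀ (X : Subgroup N) (n : N), ↑n ∈ X.map N.subtype ↔ n ∈ X := fun X n =>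
    mem_map_iff_mem N.subtype_injective
  refine ⟨_, _, (MonoidHom.fst _ _).comp Φ, (MonoidHom.snd _ _).comp Φ, σ, map_subtype_le _, map_subtype_le _,
    mk (MonoidHom.ker _), mk (MonoidHom.ker _), fun n => by rw [h5, h7, mem_prod, h9]; simp,
    fun a b => (hs (a, b)).imp fun n e => by simp [e], ?_, s1,
    ((h9 _).1 (mul_mem a a)).resolve_right fun e => s1 (mul_eq_left.1 e)⟩
  rw [← map_inf _ _ _ N.subtype_injective]
  exact IsPGroup.map (h2.to_le fun x hx => by exact hk.le (Prod.ext hx.1 hx.2)) _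

namespace NI

variable {C N K R : Subgroup G} {φ : N →* Perm (Fin 3)} {ψ : N →* M24} {σ : Perm (Fin 3)}
  (I : NI C N K R φ ψ σ)
include I

theorem KC : K ≤ C := fun k hk => (I.memC ⟨k, I.KN hk⟩).2 (Or.inl ((I.memK _).1 hk))

theorem nK {n k : G} (hn : n ∈ N) (hk : k ∈ K) : n * k * n⁻¹ ∈ K :=
  (I.memK (⟨n, hn⟩ * ⟨k, I.KN hk⟩ * ⟨n, hn⟩⁻¹)).2 (by
    rw [map_mul, map_mul, (I.memK ⟨k, I.KN hk⟩).1 hk, map_inv, mul_one, mul_inv_cancel])

theorem nR {n k : G} (hn : n ∈ N) (hk : k ∈ R) : n * k * n⁻¹ ∈ R :=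
  (I.memR (⟨n, hn⟩ * ⟨k, I.RN hk⟩ * ⟨n, hn⟩⁻¹)).2 (by
    rw [map_mul, map_mul, (I.memR ⟨k, I.RN hk⟩).1 hk, map_inv, mul_one, mul_inv_cancel])

theorem eq_s {s : N} (h1 : ↑s ∈ C) (h2 : ↑s ∉ K) : φ s = σ :=
  ((I.memC s).1 h1).resolve_left fun e => h2 ((I.memK s).2 e)

theorem idx {a b : G} (ha : a ∈ N) (h1 : a ∈ C) (h2 : a ∉ K) (hb : b ∈ N) (h3 : b ∈ C) (h4 : b ∉ K) : a * b ∈ K :=
  (I.memK (⟨a, ha⟩ * ⟨b, hb⟩)).2 (by rw [map_mul, I.eq_s h1 h2, I.eq_s h3 h4, I.s2])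

theorem gen {S : Subgroup G} (hK : K ≤ S) {s n : G} (hs : s ∈ N) (h1 : s ∈ C) (h2 : s ∉ K) (h3 : s ∈ S)
    (hn : n ∈ N) (h4 : n ∉ C) (h5 : n ∈ S) : N ≤ S := fun x hx => by
  have : ∀ σ τ ρ : Perm (Fin 3), σ ≠ 1 → σ * σ = 1 → ¬ (τ = 1 ∨ τ = σ) →
    ρ = 1 ∨ σ * ρ = 1 ∨ τ * ρ = 1 ∨ σ * τ * ρ = 1 ∨ τ * σ * ρ = 1 ∨ σ * τ * σ * ρ = 1 := by decide +kernel
  have e := I.eq_s (s := ⟨s, hs⟩) h1 h2
  have k : ∀ y : N, ↑y ∈ S → φ y * φ ⟨x, hx⟩ = 1 → x ∈ S := fun y a b =>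
    (S.mul_mem_cancel_left a).1 (hK ((I.memK (y * ⟨x, hx⟩)).2 (by rw [map_mul, b])))
  rcases this σ (φ ⟨n, hn⟩) (φ ⟨x, hx⟩) I.s1 I.s2 (mt (I.memC ⟨n, hn⟩).2 h4) with a | a | a | a | a | a <;>
    try rw [← e] at a
  exacts [k 1 (one_mem _) (by simpa using a), k _ h3 a, k ⟨n, hn⟩ h5 a, k (⟨s, hs⟩ * ⟨n, hn⟩) (mul_mem h3 h5)
    (by rwa [map_mul]), k (⟨n, hn⟩ * ⟨s, hs⟩) (mul_mem h5 h3) (by rwa [map_mul]),
    k (⟨s, hs⟩ * ⟨n, hn⟩ * ⟨s, hs⟩) (mul_mem (mul_mem h3 h5) h3) (by rwa [map_mul, map_mul])]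

theorem cj {s n : G} (hs : s ∈ N) (h1 : s ∈ C) (h2 : s ∉ K) (hn : n ∈ N) (h4 : n ∉ C) : n * s * n⁻¹ ∉ C := by
  have : ∀ σ τ : Perm (Fin 3), σ ≠ 1 → σ * σ = 1 → τ * σ * τ⁻¹ = 1 ∨ τ * σ * τ⁻¹ = σ → τ = 1 ∨ τ = σ := by
    decide +kernel
  refine fun k => h4 ((I.memC ⟨n, hn⟩).2 (this _ _ I.s1 I.s2 ?_))
  simpa only [map_mul, map_inv, I.eq_s (s := ⟨s, hs⟩) h1 h2] using (I.memC (⟨n, hn⟩ * ⟨s, hs⟩ * ⟨n, hn⟩⁻¹)).1 k

theorem ex : ∃ s ∈ R, s ∈ C ∧ s ∉ K :=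
  let ⟨n, a, b⟩ := I.surj σ 1
  ⟨n, (I.memR n).2 b, (I.memC n).2 (Or.inr a), fun k => I.s1 (a ▸ (I.memK n).1 k)⟩

theorem le_R {X : Subgroup G} (h1 : X ≤ N) (h2 : IsPGroup 2 X) (h3 : ∀ k ∈ K, ∀ x ∈ X, k * x * k⁻¹ ∈ X) : X ≤ R :=
  fun x hx => (I.memR ⟨x, h1 hx⟩).2 ((MType.m24_two_eq_bot (P := (X.subgroupOf N).map ψ) (F := ∅)
    ((h2.comap_subtype).map _) (Or.inl rfl) (by simp) (by
      rintro τ - _ ⟨y, hy, rfl⟩
      obtain ⟨n, a, rfl⟩ := I.surj 1 τ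
      exact ⟨n * y * n⁻¹, h3 _ ((I.memK n).2 a) _ hy, by simp⟩)).le ⟨_, hx, rfl⟩)

theorem relIndex_dvd {X : Subgroup G} (h : X ≤ N) : K.relIndex X ∣ 6 := by
  rw [← relIndex_subgroupOf h, show K.subgroupOf N = φ.ker from ext I.memK, relIndex_ker]
  exact (card_subgroup_dvd_card _).trans (by rw [Nat.card_perm, Nat.card_fin]; rfl)

theorem exists_23 [Finite N] : ∃ k ∈ K, orderOf k = 23 := by
  have := Finite.of_injective _ (inclusion_injective I.KN)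
  have : Fact (Nat.Prime 23) := ⟨by norm_num⟩
  obtain ⟨k, hk⟩ := exists_prime_orderOf_dvd_card' (G := K) 23 (dvd_trans (by rw [Leech.card_M24]; norm_num)
    (card_dvd_of_surjective (ψ.comp (inclusion I.KN)) fun b =>
      let ⟨n, h1, h2⟩ := I.surj 1 b; ⟨⟨n, (I.memK n).2 h1⟩, h2⟩))
  exact ⟨k, k.2, (orderOf_coe k).trans hk⟩

variable {t : G} (tR : t ∈ R) (t1 : t ≠ 1) {m : ℕ} (t3 : t ^ 3 ^ m = 1)
include tR t1 t3

theorem ord3 : φ ⟨t, I.RN tR⟩ ≠ 1 ∧ φ ⟨t, I.RN tR⟩ ^ 3 = 1 := by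
  constructor
  · intro e
    obtain ⟨k, hk⟩ := I.two ⟨t, (I.memK ⟨t, _⟩).2 e, tR⟩
    have := pow_gcd_eq_one.2 ⟨t3, congrArg Subtype.val hk⟩
    rw [(Nat.Coprime.pow m k (by norm_num) : Nat.Coprime _ _), pow_one] at this
    exact t1 this
  · have h1 : φ ⟨t, I.RN tR⟩ ^ 3 ^ m = 1 := by rw [← map_pow, ← map_one φ]; exact congrArg _ (Subtype.ext t3)
    have h2 : ∀ τ : Perm (Fin 3), τ ^ 3 = 1 ∨ τ ^ 2 = 1 := by decide +kernel
    refine (h2 _).elim id fun e => ?_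
    have := pow_gcd_eq_one.2 ⟨h1, e⟩
    rw [(Nat.Coprime.pow_left m (by norm_num) : Nat.Coprime _ 2), pow_one] at this
    rw [this, one_pow]

theorem tC : t ∉ C := fun k => by
  have : ∀ σ : Perm (Fin 3), σ * σ = 1 → σ ^ 3 = 1 → σ = 1 := by decide +kernel
  obtain ⟨a, b⟩ := I.ord3 tR t1 t3
  exact a (((I.memC ⟨t, _⟩).1 k).elim id fun e => this _ (by rw [e, I.s2]) b)

theorem cube : t ^ 3 ∈ K := (I.memK (⟨t, I.RN tR⟩ ^ 3)).2 (by rw [map_pow, (I.ord3 tR t1 t3).2])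

theorem cos {n : G} (hn : n ∈ N) : n ∈ C ∨ t * n ∈ C ∨ t⁻¹ * n ∈ C := by
  have : ∀ σ τ ρ : Perm (Fin 3), σ ≠ 1 → σ * σ = 1 → τ ≠ 1 → τ ^ 3 = 1 →
    (ρ = 1 ∨ ρ = σ) ∨ (τ * ρ = 1 ∨ τ * ρ = σ) ∨ τ⁻¹ * ρ = 1 ∨ τ⁻¹ * ρ = σ := by decide +kernel
  obtain ⟨a, b⟩ := I.ord3 tR t1 t3
  refine (this σ _ (φ ⟨n, hn⟩) I.s1 I.s2 a b).imp (I.memC ⟨n, hn⟩).2 (Or.imp (fun k => ?_) fun k => ?_)
  · exact (I.memC (⟨t, I.RN tR⟩ * ⟨n, hn⟩)).2 (by rwa [map_mul])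
  · exact (I.memC (⟨t, I.RN tR⟩⁻¹ * ⟨n, hn⟩)).2 (by rwa [map_mul, map_inv])

theorem comm_t {X V : Subgroup G} (hX : ∀ n ∈ N, ∀ x ∈ X, n * x * n⁻¹ ∈ X) (hV : ∀ n ∈ N, ∀ x ∈ V, n * x * n⁻¹ ∈ V)
    {s : G} (h1 : s ∈ R) (h2 : s ∈ C) (h3 : s ∉ K) (h4 : ∀ x ∈ X, ⁅x, s⁆ ∈ V) {x : G} (hx : x ∈ X) : ⁅x, t⁆ ∈ V := by
  let M : Subgroup N :=
    { carrier := {g | ∀ x ∈ X, ⁅x, (g : G)⁆ ∈ V}
      one_mem' := fun x _ => by simp
      mul_mem' := fun {a b} ha hb x hx => by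
        convert mul_mem (ha x hx) (hV a a.2 _ (hb x hx)) using 1
        simp only [commutatorElement_def, coe_mul]; group
      inv_mem' := fun {a} ha x hx => by
        convert hV _ (inv_mem a.2) _ (inv_mem (ha x hx)) using 1
        simp only [commutatorElement_def, coe_inv]; group }
  have : M.Normal := ⟨fun a ha g x hx => by
    convert hV g g.2 _ (ha _ (hX _ (inv_mem g.2) x hx)) using 1
    simp only [commutatorElement_def, coe_mul, coe_inv]; group⟩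
  have h5 : ∀ σ τ : Perm (Fin 3), σ ≠ 1 → σ * σ = 1 → τ ^ 3 = 1 → τ * (τ * σ * τ⁻¹ * σ⁻¹) = 1 := by decide +kernel
  set T : N := ⟨t, I.RN tR⟩
  set S : N := ⟨s, I.RN h1⟩
  have h6 : (S : N ⧸ M) = 1 := (QuotientGroup.eq_one_iff _).2 h4
  obtain ⟨k, hk⟩ := I.two ⟨↑(T * (T * S * T⁻¹ * S⁻¹)), (I.memK _).2 (by
    simpa only [map_mul, map_inv, I.eq_s (s := S) h2 h3] using h5 _ _ I.s1 I.s2 (I.ord3 tR t1 t3).2),
    R.mul_mem tR (R.mul_mem (I.nR T.2 h1) (R.inv_mem h1))⟩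
  have h7 := congrArg (QuotientGroup.mk' M) (show (T * (T * S * T⁻¹ * S⁻¹)) ^ 2 ^ k = 1 from
    Subtype.ext (congrArg Subtype.val hk :))
  simp only [map_pow, map_mul, map_inv, QuotientGroup.mk'_apply, h6, map_one, mul_one, mul_inv_cancel, inv_one] at h7
  have h8 := congrArg (QuotientGroup.mk' M) (show T ^ 3 ^ m = 1 from Subtype.ext t3)
  have := pow_gcd_eq_one.2 ⟨(map_pow _ _ _).symm.trans h8, h7⟩
  rw [(Nat.Coprime.pow m k (by norm_num) : Nat.Coprime _ _), pow_one] at this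
  exact (QuotientGroup.eq_one_iff T).1 this x hx

theorem weak {z : G} (z2 : z * z = 1) (hz : ∀ c ∈ C, c * z = z * c) {D : Set G} (h0 : D.Nonempty)
    (hD : ∀ p ∈ D, p ∈ K ⊓ R ∧ ⁅p, t⁆ ∈ D ∧ p ≠ 1 ∧ ∀ n ∈ N, p ≠ n * z * n⁻¹) {s : G} (h1 : s ∈ R) (h2 : s ∈ C)
    (h3 : s ∉ K) (h4 : ∀ p ∈ K ⊓ R, ⁅p, s⁆ = 1 ∨ ⁅p, s⁆ = z) : False := by
  obtain ⟨p, hp⟩ := h0
  have hP : ∀ n ∈ N, ∀ x ∈ K ⊓ R, n * x * n⁻¹ ∈ K ⊓ R := fun n hn x hx => ⟨I.nK hn hx.1, I.nR hn hx.2⟩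
  by_cases zP : z ∈ K ⊓ R; swap
  · refine (hD _ (hD p hp).2.1).2.2.1 (mem_bot.1 (I.comm_t tR t1 t3 hP (by simp) h1 h2 h3 (fun x hx => ?_) (hD p hp).1))
    refine mem_bot.2 ((h4 x hx).resolve_right fun e => zP (e ▸ ?_))
    rw [commutatorElement_def, mul_assoc, mul_assoc, ← mul_assoc s]
    exact mul_mem hx (hP _ (I.RN h1) _ (inv_mem hx))
  have h5 : ∀ n : G, (n * z * n⁻¹)⁻¹ = n * z * n⁻¹ := fun n => by rw [conj_inv, inv_eq_of_mul_eq_one_right z2]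
  have h6 : ∀ n ∈ N, z * (n * z * n⁻¹) = 1 ∨ ∃ m ∈ N, z * (n * z * n⁻¹) = m * z * m⁻¹ := fun n hn => by
    by_cases k : n ∈ C
    · exact Or.inl (by rw [hz n k, mul_inv_cancel_right, z2])
    refine (h4 _ (hP n hn z zP)).imp (fun e => ?_) fun e => ⟨s * n, mul_mem (I.RN h1) hn, ?_⟩
    · have k1 : ∀ x, n⁻¹ * x * n ∈ C → x ∈ centralizer {n * z * n⁻¹} := fun x hx =>
        mem_centralizer_singleton_iff.2 (by
          calc _ = n * (n⁻¹ * x * n * z) * n⁻¹ := by group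
            _ = _ := by rw [hz _ hx]; group)
      have := mem_centralizer_singleton_iff.1 (I.gen (fun x hx => k1 x (I.KC (by simpa using I.nK (inv_mem hn) hx)))
        (I.RN h1) h2 h3 (mem_centralizer_singleton_iff.2 (commutatorElement_eq_one_iff_mul_comm.1 e).symm)
        (mul_mem (mul_mem hn (I.RN h1)) (inv_mem hn)) (I.cj (I.RN h1) h2 h3 hn k) (k1 _ (by simpa [mul_assoc] using h2)) hn)
      rw [mul_assoc (n * z), inv_mul_cancel, mul_one, mul_right_inj] at this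
      rw [this, z2]
    · rw [← hz _ (I.KC (hP n hn z zP).1), ← eq_inv_mul_iff_mul_eq, h5]
      conv_lhs => rw [← e, commutatorElement_def, h5]
      group
  let V : Subgroup G :=
    { carrier := {x | x = 1 ∨ ∃ n ∈ N, x = n * z * n⁻¹}
      one_mem' := Or.inl rfl
      mul_mem' := by
        rintro _ _ (rfl | ⟨n, hn, rfl⟩) (rfl | ⟨m, hm, rfl⟩)
        exacts [Or.inl (one_mul _), Or.inr ⟨m, hm, one_mul _⟩, Or.inr ⟨n, hn, mul_one _⟩,
          (h6 _ (mul_mem (inv_mem hn) hm)).imp (fun e => by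
            calc _ = n * (z * (n⁻¹ * m * z * (n⁻¹ * m)⁻¹)) * n⁻¹ := by group
              _ = _ := by rw [e]; group) fun ⟨l, hl, e⟩ => ⟨n * l, mul_mem hn hl, by
            calc _ = n * (z * (n⁻¹ * m * z * (n⁻¹ * m)⁻¹)) * n⁻¹ := by group
              _ = _ := by rw [e]; group⟩]
      inv_mem' := by
        rintro _ (rfl | ⟨n, hn, rfl⟩)
        exacts [Or.inl inv_one, Or.inr ⟨n, hn, h5 n⟩] }
  rcases I.comm_t tR t1 t3 hP (V := V) (by
      rintro n hn _ (rfl | ⟨m, hm, rfl⟩)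
      exacts [Or.inl (by simp), Or.inr ⟨n * m, mul_mem hn hm, by group⟩]) h1 h2 h3
    (fun x hx => (h4 x hx).imp_right fun e => ⟨1, one_mem _, by simpa using e⟩) (hD p hp).1 with e | ⟨n, hn, e⟩
  exacts [(hD _ (hD p hp).2.1).2.2.1 e, (hD _ (hD p hp).2.1).2.2.2 n hn e]

end NI

local notation "SL32" => Matrix.SpecialLinearGroup (Fin 3) (ZMod 2)

theorem sl_exp (g : SL32) : g ^ 3 = 1 ∨ g ^ 4 = 1 ∨ g ^ 7 = 1 := by
  have : ∀ a b c d e f g h i : ZMod 2, a * e * i - a * f * h - b * d * i + b * f * g + c * d * h - c * e * g = 1 →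
      !![a, b, c; d, e, f; g, h, i] ^ 3 = 1 ∨ !![a, b, c; d, e, f; g, h, i] ^ 4 = 1 ∨
        !![a, b, c; d, e, f; g, h, i] ^ 7 = 1 := by decide +kernel
  have := this _ _ _ _ _ _ _ _ _ ((Matrix.det_fin_three _).symm.trans g.2)
  rw [← Matrix.eta_fin_three] at this
  exact this.imp Subtype.ext (Or.imp Subtype.ext Subtype.ext)

theorem eq_one_of_coprime {a : G} {m n : ℕ} (h1 : a ^ m = 1) (h2 : a ^ n = 1) (h : m.Coprime n) : a = 1 := by
  have := pow_gcd_eq_one.2 ⟨h1, h2⟩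
  rwa [h, pow_one] at this

theorem sl_comm {a b : SL32} {k m : ℕ} (ha : a ^ 2 ^ k = 1) (hb : b ^ 3 ^ m = 1) (h : Commute a b) : a = 1 ∨ b = 1 := by
  have h1 : b ^ 3 = 1 := by
    rcases sl_exp b with e | e | e
    exacts [e, by rw [eq_one_of_coprime hb e (Nat.Coprime.pow_left _ (by norm_num)), one_pow],
      by rw [eq_one_of_coprime hb e (Nat.Coprime.pow_left _ (by norm_num)), one_pow]]
  have h2 : ∀ n, (a * b) ^ (3 * n + 1) = 1 → b = 1 := fun n e => by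
    rw [h.mul_pow, pow_succ b, pow_mul b, h1, one_pow, one_mul] at e
    have := congrArg (· ^ 2 ^ k) e
    rw [(h.pow_left _).mul_pow, ← pow_mul a, mul_comm _ (2 ^ k), pow_mul a, ha, one_pow, one_mul, one_pow] at this
    exact eq_one_of_coprime this h1 (Nat.Coprime.pow_left _ (by norm_num))
  rcases sl_exp (a * b) with e | e | e
  · rw [h.mul_pow, h1, mul_one] at e
    exact Or.inl (eq_one_of_coprime ha e (Nat.Coprime.pow_left _ (by norm_num)))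
  exacts [Or.inr (h2 1 e), Or.inr (h2 2 e)]

/-- the structure of `L` -/
structure LI (C N L : Subgroup G) (χ : L →* SL32) : Prop where
  fin : Finite L
  surj : Function.Surjective χ
  card : ∃ k, Nat.card χ.ker = 2 ^ k * 2160
  iN : N.relIndex L = 7
  iC : C.relIndex L = 7
  iNC : (N ⊓ C).relIndex L = 21

theorem exists_chi {L : Type*} [Group L] [Finite L] {A B : Subgroup (L ⧸ pCore 2 L)} [B.Normal] (h1 : A ⊓ B = ⊥)
    (h2 : A ⊔ B = ⊤) (e : A ≃* SL32) (h3 : Nat.card B = 2160) :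
    ∃ χ : L →* SL32, Function.Surjective χ ∧ ∃ k, Nat.card χ.ker = 2 ^ k * 2160 := by
  have c := isComplement'_of_disjoint_and_mul_eq_univ (disjoint_iff.2 h1) (by rw [← mul_normal, h2, coe_top])
  let f := c.QuotientMulEquiv.trans e
  let χ : L →* SL32 := (f.toMonoidHom.comp (QuotientGroup.mk' B)).comp (QuotientGroup.mk' _)
  have hs : Function.Surjective χ :=
    (f.surjective.comp (QuotientGroup.mk'_surjective B)).comp (QuotientGroup.mk'_surjective _)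
  obtain ⟨k, hk⟩ := (Core.isPGroup_pCore 2 L).exists_card_eq
  refine ⟨χ, hs, k, ?_⟩
  have a := χ.ker.card_mul_index
  rw [index_ker, MonoidHom.range_eq_top.2 hs, card_top, G23.card_SL32] at a
  have b := (pCore 2 L).card_eq_card_quotient_mul_card_subgroup
  rw [← c.card_mul_card, h3, hk, Nat.card_congr e.toEquiv, ← a, G23.card_SL32] at b
  omega

namespace LI

variable {C N L K R : Subgroup G} {φ : N →* Perm (Fin 3)} {ψ : N →* M24} {σ : Perm (Fin 3)} {χ : L →* SL32}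
  (J : LI C N L χ)
include J

theorem ker_le {X : Subgroup G} (h : X.relIndex L = 7) {l : L} (hl : χ l = 1) : ↑l ∈ X := by
  have := J.fin
  obtain ⟨k, e⟩ := J.card
  refine le_of_prime_index (O := χ.ker) (H := X.subgroupOf L) (h.symm ▸ (by norm_num : Nat.Prime 7) :) ?_ hl
  rw [e, show (X.subgroupOf L).index = 7 from h]
  exact fun k => absurd ((Nat.Coprime.pow_right _ (by norm_num)).dvd_of_dvd_mul_left k) (by norm_num)

theorem index_ker : χ.ker.index = 168 := by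
  rw [Subgroup.index_ker, MonoidHom.range_eq_top.2 J.surj, card_top, G23.card_SL32]

theorem exists_elt {X : Subgroup G} {n p : ℕ} (hp : p.Prime) (h : X.relIndex L ∣ n) (h2 : n * p ∣ 168) :
    ∃ l : L, ↑l ∈ X ∧ χ l ≠ 1 ∧ χ l ^ p = 1 := by
  have := Fact.mk hp
  have h3 := ((X.subgroupOf L).map χ).card_mul_index
  obtain ⟨a, h4⟩ := (index_map_dvd _ J.surj).trans h
  obtain ⟨⟨_, l, a, rfl⟩, b⟩ := exists_prime_orderOf_dvd_card' (G := (X.subgroupOf L).map χ) p (by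
    rw [← G23.card_SL32, ← h3, h4, mul_comm (Nat.card _), mul_assoc] at h2
    exact (Dvd.intro_left _ rfl).trans (Nat.dvd_of_mul_dvd_mul_left (Nat.pos_of_ne_zero index_ne_zero_of_finite) h2))
  rw [← orderOf_coe] at b
  exact ⟨l, a, fun e => hp.one_lt.ne' (by simpa [e] using b.symm), b ▸ pow_orderOf_eq_one _⟩

theorem exists_t (I : NI C N K R φ ψ σ) : ∃ t ∈ L, t ∈ R ∧ t ≠ 1 ∧ t ^ 3 ^ 4 = 1 := by
  have := J.fin
  obtain ⟨k, e⟩ := J.card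
  have h1 := (N.subgroupOf L).card_mul_index
  rw [← χ.ker.card_mul_index, e, J.index_ker, show (N.subgroupOf L).index = 7 from J.iN] at h1
  obtain ⟨T, hT⟩ := Sylow.exists_subgroup_card_pow_prime (G := N.subgroupOf L) 3 (n := 4) (by omega)
  let f : T →* M24 := (ψ.comp ((L.subtype.comp (N.subgroupOf L).subtype).codRestrict N fun x => x.2)).comp T.subtype
  obtain ⟨⟨x, a⟩, b⟩ := ne_bot_iff_exists_ne_one.1 (show f.ker ≠ ⊥ from fun k => by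
    have := card_dvd_of_injective f (f.ker_eq_bot_iff.1 k)
    rw [hT, Leech.card_M24] at this
    exact absurd this (by norm_num))
  exact ⟨x.1.1, x.1.1.2, (I.memR ⟨_, x.1.2⟩).2 a, fun k => b (Subtype.ext (Subtype.ext (Subtype.ext (Subtype.ext k)))),
    congrArg (fun y : T => (y.1.1 : G)) (hT ▸ pow_card_eq_one' (x := x))⟩

theorem chi_z {z : L} (z2 : (z : G) * z = 1) (hz : ∀ c ∈ C, c * z = z * c) : χ z = 1 := by
  obtain ⟨l, a, b, c⟩ := J.exists_elt Nat.prime_three J.iC.dvd (by norm_num)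
  exact (sl_comm (k := 1) (m := 1) (by rw [pow_one, sq, ← map_mul, show z * z = 1 from Subtype.ext z2, map_one]) c
    ((show Commute z l from Subtype.ext (hz l a).symm).map χ)).resolve_right b

theorem exists_D (I : NI C N K R φ ψ σ) {t : G} (tL : t ∈ L) (tR : t ∈ R) (t1 : t ≠ 1) {m : ℕ} (t3 : t ^ 3 ^ m = 1)
    {z : G} (z2 : z * z = 1) (hz : ∀ c ∈ C, c * z = z * c) : ∃ D : Set G, D.Nonempty ∧
      ∀ p ∈ D, p ∈ K ⊓ R ∧ ⁅p, t⁆ ∈ D ∧ p ≠ 1 ∧ ∀ n ∈ N, p ≠ n * z * n⁻¹ := by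
  set T : L := ⟨t, tL⟩
  have h1 : ∀ (l : L) k, χ l ^ 2 ^ k = 1 → χ l ≠ 1 → χ ⁅l, T⁆ ≠ 1 := fun l k a b e => by
    rw [map_commutatorElement, commutatorElement_eq_one_iff_commute] at e
    exact I.tC tR t1 t3 (J.ker_le J.iC ((sl_comm a (by
      rw [← map_pow, show T ^ 3 ^ m = 1 from Subtype.ext t3, map_one]) e).resolve_left b))
  have h2 : ∀ d ∈ K, ⁅d, t⁆ ∈ K ⊓ R := fun d hd =>
    ⟨by rw [commutatorElement_def, mul_assoc, mul_assoc, ← mul_assoc t]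
        exact mul_mem hd (I.nK (I.RN tR) (inv_mem hd)), R.mul_mem (I.nR (I.KN hd) tR) (R.inv_mem tR)⟩
  obtain ⟨d, a, b, c⟩ := J.exists_elt (X := K) (n := 42) Nat.prime_two (by
    rw [← inf_eq_left.2 I.KN, ← relIndex_inf_mul_relIndex, J.iN]
    exact mul_dvd_mul_right (I.relIndex_dvd inf_le_left) 7) (by norm_num)
  refine ⟨{p | p ∈ K ⊓ R ∧ ∃ h : p ∈ L, χ ⟨p, h⟩ ≠ 1}, ⟨_, h2 d a, (⁅d, T⁆).2, h1 d 1 c b⟩, ?_⟩
  rintro p ⟨a, b, c⟩
  obtain ⟨k, e⟩ := I.two ⟨p, a⟩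
  refine ⟨a, ⟨h2 p a.1, (⁅(⟨p, b⟩ : L), T⁆).2, h1 _ k (by
    rw [← map_pow, ← map_one χ]; exact congrArg _ (Subtype.ext (congrArg Subtype.val e :))) c⟩,
    by rintro rfl; exact c (map_one χ), ?_⟩
  rintro n hn rfl
  have h3 : ∀ l : L, (l : G)⁻¹ * n ∈ C → False := fun l k => by
    have e : ((l⁻¹ * ⟨_, b⟩ * l : L) : G) = z := by
      calc _ = (l : G)⁻¹ * n * z * ((l : G)⁻¹ * n)⁻¹ := by simp [mul_assoc]
        _ = _ := by rw [hz _ k, mul_inv_cancel_right]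
    have := J.chi_z (z := l⁻¹ * ⟨_, b⟩ * l) (by rwa [e]) (by rwa [e])
    exact c (by simpa [mul_assoc, inv_mul_eq_one] using this)
  rcases I.cos tR t1 t3 hn with k | k | k
  exacts [h3 1 (by simpa using k), h3 T⁻¹ (by simpa using k), h3 T k]

end LI

end CfsgLib.MonRec
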