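import Mathlib
import Cfsg.Agent.Lib.MonRec.TrD
import Cfsg.Agent.Lib.Fgs.AutBound

/-! # The eight-group normalized by `L` -/

set_option autoImplicit false

namespace CfsgLib.MonRec

open Cfsg Subgroup Equiv

variable {G : Type*} [Group G]

/-- the part of the normalizer of `⟨z, y, a⟩` generated inside `N` and `C` meets `C(z)` in `C` -/
def YP (C N : Subgroup G) (z y a : G) : Prop := ∃ V Y : Subgroup G, z ∈ V ∧ y ∈ V ∧ a ∈ V ∧
  (∀ g, g ∈ N ∨ g ∈ C → g * z * g⁻¹ ∈ V → g * y * g⁻¹ ∈ V → g * a * g⁻¹ ∈ V → g ∈ Y) ∧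
    ∀ g ∈ Y, g * z = z * g → g ∈ C

theorem YP.conj {C N : Subgroup G} {z y a n : G} (h : YP C N z y a) (h1 : n ∈ N) (h2 : n ∈ C)
    (h3 : n * z * n⁻¹ = z) (h4 : n * y * n⁻¹ = y) : YP C N z y (n * a * n⁻¹) := by
  obtain ⟨V, Y, a1, a2, a3, a4, a5⟩ := h
  have k : ∀ (X : Subgroup G) x, x ∈ X.comap (MulAut.conj n⁻¹).toMonoidHom ↔ n⁻¹ * x * n ∈ X := fun X x => by
    simp [mem_comap]
  have k1 : ∀ g x, n⁻¹ * (g * (n * x * n⁻¹) * g⁻¹) * n = n⁻¹ * g * n * x * (n⁻¹ * g * n)⁻¹ := fun g x => by group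
  refine ⟨V.comap (MulAut.conj n⁻¹).toMonoidHom, Y.comap (MulAut.conj n⁻¹).toMonoidHom, ?_, ?_, ?_,
    fun g b1 b2 b3 b4 => ?_, fun g b1 b2 => ?_⟩ <;> rw [k] at *
  · rw [← h3]; simpa [mul_assoc] using a1
  · rw [← h4]; simpa [mul_assoc] using a2
  · simpa [mul_assoc] using a3
  · exact a4 _ (b1.imp (fun k => mul_mem (mul_mem (inv_mem h1) k) h1) fun k => mul_mem (mul_mem (inv_mem h2) k) h2)
      (by rwa [← k1, h3]) (by rwa [← k1, h4]) (by rwa [← k1])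
  · have := a5 _ b1 (by
      rw [← mul_inv_eq_iff_eq_mul, ← k1, h3, b2, mul_inv_cancel_right]
      conv_lhs => rw [← h3]
      group)
    rwa [C.mul_mem_cancel_right h2, C.mul_mem_cancel_left (inv_mem h2)] at this

theorem LI.omega {C N L K R : Subgroup G} {φ : N →* Perm (Fin 3)} {ψ : N →* M24} {σ : Perm (Fin 3)}
    {χ : L →* Matrix.SpecialLinearGroup (Fin 3) (ZMod 2)} (J : LI C N L χ) (I : NI C N K R φ ψ σ) {t : G} (tL : t ∈ L)
    (tR : t ∈ R) (t1 : t ≠ 1) {m : ℕ} (t3 : t ^ 3 ^ m = 1) {z y : G} (z1 : z ≠ 1) (z2 : z * z = 1)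
    (hz : ∀ c ∈ C, c * z = z * c) (h1 : t * z * t⁻¹ = y) (h2 : t⁻¹ * z * t = y * z) (h3 : y ≠ z)
    (hc : ∀ c ∈ C, c * y * c⁻¹ = y ∨ c * y * c⁻¹ = y * z → c ∈ N) (cz : ∀ n ∈ N, n * z = z * n → n ∈ C) :
    ∃ a, YP C N z y a ∧ (a ≠ 1 ∧ a ≠ z ∧ a ≠ y ∧ a ≠ y * z) ∧ ∀ u, u = a ∨ u = a * y ∨ u = t⁻¹ * a * t →
      u = 1 ∨ u = z ∨ ∃ c ∈ C, u = c * y * c⁻¹ ∨ u = c * y * c⁻¹ * z := by
  have := J.fin
  have hz' : ∀ c ∈ C, c * z * c⁻¹ = z := fun c hc => by rw [hz c hc, mul_inv_cancel_right]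
  have st : ∀ l ∈ L, l * z * l⁻¹ = z → l ∈ C := fun l hl e => by_contra fun k =>
    h3 (h1 ▸ mul_inv_eq_iff_eq_mul.2 (mem_centralizer_singleton_iff.1 (le_of_relIndex (J.iC ▸ (by norm_num : Nat.Prime 7))
      (fun c hc => mem_centralizer_singleton_iff.2 (hz c hc.2)) hl
      (mem_centralizer_singleton_iff.2 (mul_inv_eq_iff_eq_mul.1 e)) k tL)))
  have y1 : y ≠ 1 := fun e => z1 (by simpa [e] using h1)
  let Ω : Set G := {u | ∃ l ∈ L, u = l * z * l⁻¹}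
  have sq : ∀ u ∈ Ω, u * u = 1 := by rintro _ ⟨l, -, rfl⟩; rw [conj_mul, z2]; simp
  have o7 : Ω.ncard = 7 := by
    let _ : MulAction L G := MulAction.compHom G (MulAut.conj.comp L.subtype)
    have := MulAction.index_stabilizer L z
    rw [show MulAction.stabilizer L z = C.subgroupOf L from ext fun l => ⟨st l l.2, hz' l⟩] at this
    rw [← J.iC, relIndex, this]
    exact congrArg _ (Set.ext fun u => ⟨fun ⟨l, a, b⟩ => ⟨⟨l, a⟩, b.symm⟩, fun ⟨l, b⟩ => ⟨l, l.2, b.symm⟩⟩)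
  have i3 : N.relIndex (C ⊓ L) = 3 := by
    have := relIndex_inf_mul_relIndex N C L
    rw [J.iC, J.iNC] at this
    omega
  have hP : ∀ c ∈ C ⊓ L, ∀ b : Bool, c * y * c⁻¹ * cond b z 1 ∈ Ω \ {z} := fun c hc b => by
    cases b
    · exact ⟨⟨c * t, mul_mem hc.2 tL, by rw [← h1]; simp [mul_assoc]⟩, fun e => h3 (by
        simpa [mul_assoc] using e.trans (hz' c hc.1).symm)⟩
    · exact ⟨⟨c * t⁻¹, mul_mem hc.2 (inv_mem tL), by
        rw [show c * t⁻¹ * z * (c * t⁻¹)⁻¹ = c * (t⁻¹ * z * t) * c⁻¹ by group, h2, ← conj_mul, hz' c hc.1]; rfl⟩,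
        fun e => y1 (by simpa using e)⟩
  have hΩ : ∀ u ∈ Ω \ {z}, ∃ c ∈ C ⊓ L, ∃ b : Bool, u = c * y * c⁻¹ * cond b z 1 := by
    let F : (↥(C ⊓ L) ⧸ N.subgroupOf (C ⊓ L)) × Bool → G := fun p => p.1.out * y * (p.1.out : G)⁻¹ * cond p.2 z 1
    have hF : Function.Injective F := by
      rintro ⟨p, b⟩ ⟨p', b'⟩ e
      have k : ∀ c ∈ C, ∀ b : Bool, c * cond b z 1 * c⁻¹ = cond b z 1 := fun c hc b => by cases b <;> simp [hz' c hc]
      obtain rfl : p = p' := by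
        rw [← p.out_eq', ← p'.out_eq']
        refine (QuotientGroup.eq.2 (show p'.out⁻¹ * p.out ∈ N.subgroupOf _ from hc _ (p'.out⁻¹ * p.out).2.1 ?_)).symm
        have : ((p'.out⁻¹ * p.out : ↥(C ⊓ L)) : G) * y * ((p'.out⁻¹ * p.out : ↥(C ⊓ L)) : G)⁻¹ =
            y * (cond b' z 1 * (cond b z 1)⁻¹) := by
          rw [← k _ (inv_mem p'.out.2.1) b, ← k _ (inv_mem p'.out.2.1) b']
          calc _ = (p'.out : G)⁻¹ * (F (p, b) * (cond b z 1)⁻¹) * p'.out := by simp [F, mul_assoc]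
            _ = _ := by rw [e]; simp [F, mul_assoc]
        rw [coe_subtype, this]
        cases b <;> cases b' <;> simp [inv_eq_of_mul_eq_one_right z2, z2]
      have := mul_left_cancel e
      cases b <;> cases b' <;> simp_all
    intro u hu
    obtain ⟨p, rfl⟩ := (Set.eq_of_subset_of_ncard_le (s := Set.range F) (t := Ω \ {z})
      (by rintro _ ⟨p, rfl⟩; exact hP _ p.1.out.2 _) (by
        rw [Set.ncard_sdiff_singleton_of_mem (show z ∈ Ω from ⟨1, one_mem _, by simp⟩), o7, Set.ncard_range_of_injective hF,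
          Nat.card_prod, show Nat.card (_ ⧸ _) = 3 from i3]; simp)
      ((Set.finite_of_ncard_ne_zero (by omega)).subset Set.sdiff_subset)).ge hu
    exact ⟨_, p.1.out.2, _, rfl⟩
  have yz : z * y = y * z := by
    have a := sq y ⟨t, tL, h1.symm⟩
    have b := sq (y * z) ⟨t⁻¹, inv_mem tL, by rw [inv_inv, h2]⟩
    rw [← inv_eq_of_mul_eq_one_right b, mul_inv_rev, inv_eq_of_mul_eq_one_right a, inv_eq_of_mul_eq_one_right z2]
  have cj : ∀ l ∈ L, ∀ u ∈ Ω, l * u * l⁻¹ ∈ Ω := by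
    rintro l hl _ ⟨k, hk, rfl⟩
    exact ⟨l * k, mul_mem hl hk, by group⟩
  have zu : ∀ u ∈ Ω, z * u = 1 ∨ z * u ∈ Ω := fun u hu => (em (u = z)).imp (fun e => by rw [e, z2]) fun e => by
    obtain ⟨c, hc, b, rfl⟩ := hΩ u ⟨hu, e⟩
    convert (hP c hc (!b)).1 using 1
    rw [← mul_assoc, ← hz' c hc.1, conj_mul, yz, ← conj_mul, hz' c hc.1, mul_assoc]
    cases b <;> simp [z2]
  let V : Subgroup G :=
    { carrier := insert 1 Ω
      one_mem' := Or.inl rfl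
      mul_mem' := by
        rintro _ _ (rfl | ⟨l, hl, rfl⟩) (rfl | hu)
        exacts [Or.inl (one_mul _), Or.inr (by rwa [one_mul]), Or.inr ⟨l, hl, mul_one _⟩,
          (zu _ (cj _ (inv_mem hl) _ hu)).imp (fun e => by
            simpa [mul_assoc] using congrArg (fun x => l * x * l⁻¹) e) fun e => by simpa [mul_assoc] using cj l hl _ e]
      inv_mem' := by
        rintro u (rfl | hu)
        exacts [Or.inl inv_one, Or.inr (by rwa [inv_eq_of_mul_eq_one_right (sq u hu)])] }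
  have v8 : Nat.card V = 2 ^ 3 := (Nat.card_coe_set_eq _).trans ((Set.ncard_insert_of_notMem (by
    rintro ⟨l, -, e⟩; exact z1 (by simpa using e.symm)) (Set.finite_of_ncard_ne_zero (by omega))).trans (by rw [o7]; rfl))
  have : Finite V := Nat.finite_of_card_ne_zero (by omega)
  have v2 : ∀ u ∈ V, u * u = 1 := by rintro u (rfl | hu); exacts [one_mul _, sq u hu]
  have : IsMulCommutative V := ⟨⟨fun a b => Subtype.ext (by
    rw [coe_mul, ← inv_eq_of_mul_eq_one_right (v2 _ (mul_mem a.2 b.2)), mul_inv_rev, inv_eq_of_mul_eq_one_right (v2 _ a.2),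
      inv_eq_of_mul_eq_one_right (v2 _ b.2), coe_mul])⟩⟩
  have cv : ∀ l ∈ L, ∀ u ∈ V, l * u * l⁻¹ ∈ V := by
    rintro l hl u (rfl | hu)
    exacts [Or.inl (by simp), Or.inr (cj l hl u hu)]
  have LV : L ≤ normalizer (V : Set G) := fun l hl => mem_normalizer_fintype (cv l hl)
  let f := V.normalizerMonoidHom.comp (inclusion LV)
  have zV : z ∈ V := Or.inr ⟨1, one_mem _, by simp⟩
  have yV : y ∈ V := Or.inr ⟨t, tL, h1.symm⟩
  have f1 : χ.ker ≤ f.ker := fun l hl => MulEquiv.ext fun u => Subtype.ext (by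
    show l * (u : G) * (l : G)⁻¹ = u
    rcases u.2 with e | ⟨k, hk, e⟩ <;> rw [e]
    · simp
    · have := hz' _ (J.ker_le J.iC (χ.normal_ker.conj_mem' l hl ⟨k, hk⟩))
      conv_rhs => rw [← this]
      simp [mul_assoc])
  have f2 : Function.Surjective f := by
    have := G23.simple_SL32
    have e : f.ker = χ.ker := le_antisymm ((Subgroup.map_eq_bot_iff _).1
      ((f.normal_ker.map χ J.surj).eq_bot_or_eq_top.resolve_right fun e => h3 (h1.symm.trans (congrArg Subtype.val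
        (DFunLike.congr_fun (((comap_map_eq_self f1).le (e.ge (mem_top _)) : (⟨t, tL⟩ : L) ∈ f.ker)) ⟨z, zV⟩) :)))) f1
    refine MonoidHom.range_eq_top.1 (eq_top_of_le_card _ ?_)
    rw [← Subgroup.index_ker, e, J.index_ker]
    exact Nat.le_of_dvd (by norm_num) (Fgs.card_mulAut_dvd_of_elementary (fun x => Subtype.ext (by
      simpa [pow_two] using v2 x x.2)) v8)
  obtain ⟨c, c1, c2⟩ := SetLike.not_le_iff_exists.1 (mt (relIndex_eq_one.2) (i3.trans_ne (by norm_num)))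
  have a0 : c * y * c⁻¹ ∈ Ω \ {z} := by simpa using hP c c1 false
  have a1 : c * y * c⁻¹ ≠ 1 := by simpa using y1
  have a3 : c * y * c⁻¹ ≠ y := fun e => c2 (hc c c1.1 (Or.inl e))
  have a4 : c * y * c⁻¹ ≠ y * z := fun e => c2 (hc c c1.1 (Or.inr e))
  generalize c * y * c⁻¹ = a at *
  have aV : a ∈ V := Or.inr a0.1
  have gn : ∀ W : Subgroup G, z ∈ W → y ∈ W → a ∈ W → V ≤ W := fun W b1 b2 b3 => by
    have k1 := (Nat.dvd_prime_pow Nat.prime_two).1 (v8 ▸ card_dvd_of_le (inf_le_left : V ⊓ W ≤ V))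
    have : Finite ↥(V ⊓ W) := Finite.of_injective _ (inclusion_injective inf_le_left)
    have k2 := Set.ncard_le_ncard (s := {a, y * z, y, z, 1}) (t := (V ⊓ W : Subgroup G)) (by
      rintro _ (rfl | rfl | rfl | rfl | rfl)
      exacts [⟨aV, b3⟩, ⟨mul_mem yV zV, mul_mem b2 b1⟩, ⟨yV, b2⟩, ⟨zV, b1⟩, one_mem _]) (Set.toFinite _)
    rw [Set.ncard_insert_of_notMem (by simpa [a1, a3, a4] using a0.2), Set.ncard_insert_of_notMem (by
      simpa [z1, y1] using fun e => h3 (mul_right_cancel (e.trans z2.symm))),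
      Set.ncard_insert_of_notMem (by simp [h3, y1]), Set.ncard_pair z1, ← Nat.card_coe_set_eq] at k2
    refine inf_eq_left.1 (eq_of_le_of_card_ge inf_le_left ?_)
    obtain ⟨i, k3, k4⟩ := k1
    change _ ≤ Nat.card ↥(V ⊓ W) at k2
    interval_cases i <;> omega
  let D := C ⊓ centralizer (V : Set G)
  have d1 : ∀ l ∈ L, l ∈ N ∨ l ∈ C → ∀ k ∈ D, l * k * l⁻¹ ∈ D := fun l hl h k hk => by
    have e : l * k * l⁻¹ ∈ centralizer (V : Set G) := fun u hu => by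
      calc _ = l * (l⁻¹ * u * l⁻¹⁻¹ * k) * l⁻¹ := by group
        _ = _ := by rw [hk.2 _ (cv _ (inv_mem hl) u hu)]; group
    exact ⟨h.elim (fun h => cz _ (mul_mem (mul_mem h (hc k hk.1 (Or.inl (by rw [← hk.2 y yV]; simp)))) (inv_mem h))
      (e z zV).symm) fun h => C.mul_mem (C.mul_mem h hk.1) (C.inv_mem h), e⟩
  have d2 : ∀ l ∈ L, l ∈ N ∨ l ∈ C → l ∈ normalizer (D : Set G) := fun l hl h => mem_normalizer_iff.2 fun k =>
    ⟨d1 l hl h k, fun e => by simpa [mul_assoc] using d1 _ (inv_mem hl) (h.imp inv_mem inv_mem) _ e⟩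
  have d3 : ∀ l ∈ L, ∀ k ∈ D, l * k * l⁻¹ ∈ D := fun l hl k => (mem_normalizer_iff.1 (le_of_relIndex
    (J.iC ▸ (by norm_num : Nat.Prime 7)) (fun c hc => d2 c hc.1 (Or.inr hc.2)) tL (d2 t tL (Or.inl (I.RN tR)))
    (I.tC tR t1 t3) hl) k).1
  let Y : Subgroup G :=
    { carrier := {g | ∃ l ∈ L, l⁻¹ * g ∈ D}
      one_mem' := ⟨1, one_mem _, by simp⟩
      mul_mem' := by
        rintro g g' ⟨l, hl, k⟩ ⟨l', hl', k'⟩
        exact ⟨_, mul_mem hl hl', by simpa [mul_assoc] using mul_mem (d3 _ (inv_mem hl') _ k) k'⟩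
      inv_mem' := by
        rintro g ⟨l, hl, k⟩
        exact ⟨_, inv_mem hl, by simpa [mul_assoc] using d3 _ hl _ (inv_mem k)⟩ }
  have LY : L ≤ Y := fun l hl => ⟨l, hl, by simp⟩
  have CY : ∀ g ∈ C, (∀ u ∈ V, g * u * g⁻¹ ∈ V) → g ∈ Y := fun g hg k => by
    obtain ⟨l, e⟩ := f2 (V.normalizerMonoidHom ⟨g, mem_normalizer_fintype k⟩)
    have e' : ∀ u ∈ V, l * u * (l : G)⁻¹ = g * u * g⁻¹ := fun u hu => (congrArg Subtype.val (DFunLike.congr_fun e ⟨u, hu⟩) :)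
    refine ⟨l, l.2, C.mul_mem (C.inv_mem (st l l.2 ((e' z zV).trans (hz' g hg)))) hg, fun u hu => ?_⟩
    calc _ = (l : G)⁻¹ * (l * u * (l : G)⁻¹) * g := by group
      _ = _ := by rw [e' u hu]; group
  refine ⟨a, ⟨V, Y, zV, yV, aV, fun g k b1 b2 b3 => ?_, ?_⟩, ⟨a1, a0.2, a3, a4⟩, fun u hu => ?_⟩
  · have k1 : ∀ u ∈ V, g * u * g⁻¹ ∈ V := gn (V.comap (MulAut.conj g).toMonoidHom) b1 b2 b3
    have k2 : ∀ l ∈ L, l * g ∈ C → g ∈ Y := fun l hl e => (Y.mul_mem_cancel_left (LY hl)).1 (CY _ e fun u hu => by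
      simpa [mul_assoc] using cv l hl _ (k1 u hu))
    rcases k with k | k
    · rcases I.cos tR t1 t3 k with e | e | e
      exacts [CY g e k1, k2 _ tL e, k2 _ (inv_mem tL) e]
    · exact CY g k k1
  · rintro g ⟨l, hl, k⟩ e
    refine (C.mul_mem_cancel_left (inv_mem (st l hl ?_))).1 k.1
    calc _ = g * ((l⁻¹ * g)⁻¹ * z * (l⁻¹ * g)⁻¹⁻¹) * g⁻¹ := by group
      _ = _ := by rw [hz' _ (inv_mem k.1), e, mul_inv_cancel_right]
  · have : u ∈ V := by
      rcases hu with rfl | rfl | rfl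
      exacts [aV, mul_mem aV yV, by simpa using cv _ (inv_mem tL) a aV]
    refine this.imp_right fun k => or_iff_not_imp_left.2 fun e => ?_
    obtain ⟨c, hc, b, rfl⟩ := hΩ u ⟨k, e⟩
    exact ⟨c, hc.1, by cases b <;> simp⟩

end CfsgLib.MonRec
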